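import Mathlib

/-!
# Lifting commuting elements through a central quotient
-/

set_option autoImplicit false

namespace Cfsg.Agent.CommPrimes

theorem exists_lift {G : Type*} [Group G] [Finite G] (Z : Subgroup G) [Z.Normal]
    (hZ : Z ≤ Subgroup.center G) (p : ℕ) [hp : Fact p.Prime]
    (hZp : ∀ z ∈ Z, ∀ k : ℕ, z ^ p ^ k = 1 → z = 1)
    (a b : G ⧸ Z) (ha : orderOf a = p) (hab : Commute a b) (r : ℕ) (hr : r.Prime) (hrb : r ∣ orderOf b) :
    ∃ (A B : G) (k : ℕ), A ≠ 1 ∧ A ^ p ^ k = 1 ∧ Commute A B ∧ orderOf B = r := by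
  obtain ⟨A₀, rfl⟩ := QuotientGroup.mk_surjective a
  obtain ⟨B₀, rfl⟩ := QuotientGroup.mk_surjective b
  have hpA : p ∣ orderOf A₀ := by
    rw [← ha]; exact orderOf_map_dvd (QuotientGroup.mk' Z) A₀
  have hrB : r ∣ orderOf B₀ := hrb.trans (orderOf_map_dvd (QuotientGroup.mk' Z) B₀)
  obtain ⟨k, c, hc, hAo⟩ := Nat.exists_eq_pow_mul_and_not_dvd (orderOf_pos A₀).ne' p hp.out.ne_one
  refine ⟨A₀ ^ c, B₀ ^ (orderOf B₀ / r), k, ?_, ?_, ?_, ?_⟩
  · intro h
    apply hc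
    rw [← ha]
    refine orderOf_dvd_of_pow_eq_one ?_
    rw [← QuotientGroup.mk_pow, h, QuotientGroup.mk_one]
  · rw [← pow_mul, mul_comm, ← hAo, pow_orderOf_eq_one]
  · refine Commute.pow_right ?_ _
    set A := A₀ ^ c with hA
    have hmk : Commute (A : G ⧸ Z) (B₀ : G ⧸ Z) := by
      rw [hA, QuotientGroup.mk_pow]; exact hab.pow_left c
    have hz : A⁻¹ * (B₀ * A * B₀⁻¹) ∈ Z := by
      rw [← QuotientGroup.eq_one_iff]
      simp only [QuotientGroup.mk_mul, QuotientGroup.mk_inv]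
      rw [← hmk.eq, mul_inv_cancel_right, inv_mul_cancel]
    set z := A⁻¹ * (B₀ * A * B₀⁻¹) with hzdef
    have hAk : A ^ p ^ k = 1 := by rw [hA, ← pow_mul, mul_comm, ← hAo, pow_orderOf_eq_one]
    have hcz : Commute A z := ((Subgroup.mem_center_iff.1 (hZ hz)) A)
    have h1 : z = 1 := by
      refine hZp z hz k ?_
      have e : (A * z) ^ p ^ k = 1 := by
        rw [show A * z = B₀ * A * B₀⁻¹ by rw [hzdef, mul_inv_cancel_left], conj_pow, hAk, mul_one,
          mul_inv_cancel]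
      rwa [hcz.mul_pow, hAk, one_mul] at e
    show A * B₀ = B₀ * A
    have e : A * z = A := by rw [h1, mul_one]
    rw [hzdef, mul_inv_cancel_left, mul_inv_eq_iff_eq_mul] at e
    exact e.symm
  · exact orderOf_pow_orderOf_div (orderOf_pos B₀).ne' hrB

end Cfsg.Agent.CommPrimes
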