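import Cfsg.Agent.CommPrimes.Lift
import Cfsg.Agent.SylowLarge.Linear

/-!
# Elements of prime order commuting with a non-trivial unipotent, linear case
-/

set_option autoImplicit false
set_option linter.style.haveILetI false

namespace Cfsg.Agent.CommPrimes

open Module

variable {F : Type*} [Field F] [Fintype F]

theorem card_gl_dvd {j k : ℕ} (h : j ≤ k) : Nat.card (GL (Fin j) F) ∣ Nat.card (GL (Fin k) F) := by
  rw [Matrix.card_GL_field, Matrix.card_GL_field]
  obtain ⟨d, rfl⟩ := Nat.exists_eq_add_of_le' h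
  have hprod : ∏ i : Fin j, (Fintype.card F ^ (d + j) - Fintype.card F ^ (d + (i : ℕ))) =
      (Fintype.card F ^ d) ^ j * ∏ i : Fin j, (Fintype.card F ^ j - Fintype.card F ^ (i : ℕ)) := by
    calc _ = ∏ i : Fin j, Fintype.card F ^ d * (Fintype.card F ^ j - Fintype.card F ^ (i : ℕ)) :=
          Finset.prod_congr rfl fun i _ => by rw [Nat.mul_sub, ← pow_add, ← pow_add]
      _ = _ := by rw [Finset.prod_mul_distrib, Finset.prod_const, Finset.card_univ, Fintype.card_fin]
  rw [Fin.prod_univ_add (fun i => Fintype.card F ^ (d + j) - Fintype.card F ^ (i : ℕ))]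
  simp only [Fin.val_natAdd, Fin.val_castAdd]
  rw [hprod]
  exact Dvd.dvd.mul_left (dvd_mul_left _ _) _

theorem eq_one_of_pow {G : Type*} [Group G] [Finite G] {r : ℕ} (hr : r.Prime) (hG : ¬ r ∣ Nat.card G)
    {g : G} (hg : g ^ r = 1) : g = 1 := by
  by_contra hne
  haveI := Fact.mk hr
  exact hG ((orderOf_eq_prime hg hne) ▸ orderOf_dvd_natCard g)

/-- An endomorphism of order dividing `r` of a space of small dimension is trivial. -/
theorem end_eq_one {d r : ℕ} (hr : r.Prime) (hrd : ¬ r ∣ Nat.card (GL (Fin d) F))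
    {V : Type*} [AddCommGroup V] [Module F V] [FiniteDimensional F V] (hV : finrank F V ≤ d)
    (g : Module.End F V) (hg : g ^ r = 1) : g = 1 := by
  set e := LinearMap.toMatrixAlgEquiv (finBasis F V)
  have hm : (e g) ^ r = 1 := by rw [← map_pow, hg, map_one]
  have hu : IsUnit (e g) := IsUnit.of_pow_eq_one hm hr.ne_zero
  have h1 : hu.unit = 1 := eq_one_of_pow hr (fun h => hrd (h.trans (card_gl_dvd hV)))
    (Units.ext (by rw [Units.val_pow_eq_pow_val, IsUnit.unit_spec, hm]; rfl))
  refine e.injective ?_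
  rw [map_one]
  simpa using congrArg Units.val h1

theorem exists_top_pow {R : Type*} [MonoidWithZero R] {N : R} (hN : N ≠ 0) (hnil : IsNilpotent N) :
    ∃ s, 0 < s ∧ N ^ s ≠ 0 ∧ N ^ (s + 1) = 0 := by
  have hne : {t | N ^ t = 0}.Nonempty := hnil
  have h1 := Nat.sInf_mem hne
  rcases Nat.lt_or_ge (sInf {t | N ^ t = 0}) 2 with h | h
  · refine absurd ?_ hN
    have h1' : N ^ sInf {t | N ^ t = 0} = 0 := h1
    interval_cases hk : sInf {t | N ^ t = 0}
    · rw [pow_zero] at h1'; rw [← mul_one N, h1', mul_zero]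
    · rwa [pow_one] at h1'
  · refine ⟨sInf {t | N ^ t = 0} - 1, by omega, fun h0 => ?_, ?_⟩
    · have := Nat.sInf_le (s := {t | N ^ t = 0}) h0
      omega
    · rw [Nat.sub_add_cancel (by omega)]; exact h1

theorem isNilpotent_sub_one {R : Type*} [Ring R] (p : ℕ) [Fact p.Prime] [CharP R p] {A : R} {k : ℕ}
    (hA : A ^ p ^ k = 1) : IsNilpotent (A - 1) :=
  ⟨p ^ k, by rw [sub_pow_char_pow_of_commute p k (Commute.one_right A), hA, one_pow, sub_self]⟩

theorem eq_one_of_unipotent {R : Type*} [Ring R] (p : ℕ) [hp : Fact p.Prime] [CharP R p] {r : ℕ}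
    (hr : r.Prime) (hrp : r ≠ p) {B : R} (hB : B ^ r = 1) (h3 : (B - 1) ^ 3 = 0) : B = 1 := by
  have h1 : B ^ p ^ 2 = 1 := by
    refine sub_eq_zero.1 ?_
    rw [← one_pow (p ^ 2), ← sub_pow_char_pow_of_commute p 2 (Commute.one_right B)]
    refine pow_eq_zero_of_le ?_ h3
    nlinarith [hp.out.two_le]
  have hco : Nat.gcd r (p ^ 2) = 1 :=
    Nat.Coprime.pow_right 2 ((Nat.coprime_primes hr hp.out).2 hrp)
  have := pow_gcd_eq_one.2 ⟨hB, h1⟩
  rwa [hco, pow_one] at this

variable {V : Type*} [AddCommGroup V] [Module F V] [FiniteDimensional F V]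

/-- An element of prime order `r` commuting with a non-zero square-zero map. -/
theorem sub_one_cube {r : ℕ} (hr : r.Prime) (hn : 4 ≤ finrank F V)
    (hrd : ¬ r ∣ Nat.card (GL (Fin (finrank F V - 2)) F)) (T B : Module.End F V) (hT : T ≠ 0)
    (hTT : T * T = 0) (hBT : Commute B T) (hB : B ^ r = 1) : (B - 1) ^ 3 = 0 := by
  have hW : ∀ x ∈ LinearMap.ker T, B x ∈ LinearMap.ker T := fun x hx => by
    rw [LinearMap.mem_ker] at hx ⊢
    rw [← Module.End.mul_apply, ← hBT.eq, Module.End.mul_apply, hx, map_zero]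
  have hL : ∀ x ∈ LinearMap.range T, B x ∈ LinearMap.range T := by
    rintro x ⟨y, rfl⟩
    exact ⟨B y, by rw [← Module.End.mul_apply, ← hBT.eq, Module.End.mul_apply]⟩
  have hle : LinearMap.range T ≤ LinearMap.ker T := by
    rintro x ⟨y, rfl⟩
    rw [LinearMap.mem_ker, ← Module.End.mul_apply, hTT, LinearMap.zero_apply]
  have hrank := LinearMap.finrank_range_add_finrank_ker T
  have hpos : 0 < finrank F (LinearMap.range T) := by
    rw [Nat.pos_iff_ne_zero, Ne, Submodule.finrank_eq_zero, LinearMap.range_eq_bot]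
    exact hT
  have hhalf := Submodule.finrank_mono hle
  have hfixL : ∀ x ∈ LinearMap.range T, B x = x := by
    have h := end_eq_one hr hrd (V := LinearMap.range T) (by omega) (B.restrict hL) (by
      refine LinearMap.ext fun x => Subtype.ext ?_
      rw [Module.End.pow_restrict]
      simp only [LinearMap.coe_restrict_apply, hB, Module.End.one_apply])
    intro x hx
    exact congrArg Subtype.val (LinearMap.congr_fun h ⟨x, hx⟩)
  have hVW : ∀ x, (B - 1) x ∈ LinearMap.ker T := fun x => by
    rw [LinearMap.mem_ker, LinearMap.sub_apply, Module.End.one_apply, map_sub, ← Module.End.mul_apply T B,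
      ← hBT.eq, Module.End.mul_apply, hfixL _ ⟨x, rfl⟩, sub_self]
  have hWL : ∀ x ∈ LinearMap.ker T, (B - 1) x ∈ LinearMap.range T := by
    let L' := (LinearMap.range T).comap (LinearMap.ker T).subtype
    have hL' : L' ≤ L'.comap (B.restrict hW) := fun x hx => hL _ hx
    have hdim : finrank F (LinearMap.ker T ⧸ L') ≤ finrank F V - 2 := by
      have := Submodule.finrank_quotient_add_finrank L'
      rw [(Submodule.comapSubtypeEquivOfLe hle).finrank_eq] at this
      omega
    have h := end_eq_one hr hrd (V := LinearMap.ker T ⧸ L') hdim (L'.mapQ L' (B.restrict hW) hL') (by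
      rw [← Submodule.mapQ_pow]
      refine LinearMap.ext fun x => Submodule.Quotient.induction_on _ x fun y => ?_
      rw [Submodule.mapQ_apply, Module.End.one_apply]
      congr 1
      refine Subtype.ext ?_
      rw [Module.End.pow_restrict]
      simp only [LinearMap.coe_restrict_apply, hB, Module.End.one_apply])
    intro x hx
    have hx' := LinearMap.congr_fun h (Submodule.Quotient.mk ⟨x, hx⟩)
    rw [Submodule.mapQ_apply, Module.End.one_apply, Submodule.Quotient.eq] at hx'
    simpa using Submodule.mem_comap.1 hx'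
  refine LinearMap.ext fun x => ?_
  rw [pow_succ', pow_two, Module.End.mul_apply, Module.End.mul_apply, LinearMap.sub_apply (B : Module.End F V) 1,
    Module.End.one_apply, hfixL _ (hWL _ (hVW x)), sub_self, LinearMap.zero_apply]


theorem dvd_card_sl_of_dvd_card_gl {m r : ℕ} (hm : 2 ≤ m) (hr : r.Prime)
    (h : r ∣ Nat.card (GL (Fin m) F)) : r ∣ Nat.card (Matrix.SpecialLinearGroup (Fin m) F) := by
  have hmul := SylowLarge.card_sl_mul (F := F) (by omega : 1 ≤ m)
  rw [← hmul] at h
  rcases hr.dvd_mul.1 h with hcase | hcase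
  · exact hcase
  obtain ⟨d, rfl⟩ := Nat.exists_eq_add_of_le' hm
  rw [Matrix.card_GL_field, Fin.prod_univ_castSucc, Fin.prod_univ_castSucc] at hmul
  simp only [Fin.val_castSucc, Fin.val_last] at hmul
  set q := Fintype.card F
  have hq : 1 < q := Fintype.one_lt_card
  set A := ∏ i : Fin d, (q ^ (d + 2) - q ^ (i : ℕ))
  have h1 : q ^ (d + 2) - q ^ (d + 1) = q ^ (d + 1) * (q - 1) := by
    rw [Nat.mul_sub, mul_one, ← pow_succ]
  have h2 : q ^ (d + 2) - q ^ d = q ^ d * (q ^ 2 - 1) := by rw [Nat.mul_sub, mul_one, ← pow_add]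
  rw [h1, h2, ← mul_assoc] at hmul
  have hq2 : r ∣ q ^ 2 - 1 := dvd_trans hcase (Nat.sub_one_dvd_pow_sub_one q 2)
  rw [Nat.eq_of_mul_eq_mul_right (by omega) hmul]
  exact ((hq2.mul_left _).mul_left _).mul_right _

theorem psl_commuting (p : ℕ) [hp : Fact p.Prime] [CharP F p] (n : ℕ) (hn : 4 ≤ n)
    (a b : Matrix.ProjectiveSpecialLinearGroup (Fin n) F) (ha : orderOf a = p) (hab : Commute a b)
    {r : ℕ} (hr : r.Prime) (hrb : r ∣ orderOf b) : r ∣ Nat.card (Matrix.SpecialLinearGroup (Fin (n - 2)) F) := by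
  classical
  by_cases hrd : r ∣ Nat.card (GL (Fin (n - 2)) F)
  · exact dvd_card_sl_of_dvd_card_gl (by omega) hr hrd
  exfalso
  have hrp : r ≠ p := by
    rintro rfl
    apply hrd
    obtain ⟨e, -, he⟩ := FiniteField.card F r
    have hqd : Fintype.card F ∣ Nat.card (GL (Fin (n - 2)) F) := by
      rw [Matrix.card_GL_field]
      refine dvd_trans ?_ (Finset.dvd_prod_of_mem _ (Finset.mem_univ (⟨1, by omega⟩ : Fin (n - 2))))
      exact Nat.dvd_sub (dvd_pow_self _ (by omega)) (dvd_pow_self _ (by simp))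
    rw [he] at hqd
    exact (dvd_pow_self r e.ne_zero).trans hqd
  haveI : Nonempty (Fin n) := ⟨⟨0, by omega⟩⟩
  obtain ⟨A, B, k, hA1, hAk, hAB, hBo⟩ := exists_lift (Subgroup.center _) le_rfl p (fun z hz k hk => by
    obtain ⟨c, hc, hcz⟩ := Matrix.SpecialLinearGroup.mem_center_iff.1 hz
    have hck : c ^ p ^ k = 1 := by
      have e := congrArg (fun M : Matrix.SpecialLinearGroup (Fin n) F => (M : Matrix (Fin n) (Fin n) F)) hk
      simp only [Matrix.SpecialLinearGroup.coe_pow, Matrix.SpecialLinearGroup.coe_one, ← hcz, ← map_pow] at e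
      exact (Matrix.scalar (Fin n)).injective (e.trans (map_one _).symm)
    have hc1 : c = 1 := by
      refine sub_eq_zero.1 (pow_eq_zero_iff (pow_ne_zero k hp.out.ne_zero) |>.1 ?_)
      rw [sub_pow_char_pow, hck, one_pow, sub_self]
    refine Subtype.ext ?_
    rw [← hcz, hc1, map_one]
    rfl) a b ha hab r hr hrb
  let φ : Matrix.SpecialLinearGroup (Fin n) F →* Module.End F (Fin n → F) :=
    ((Matrix.toLinAlgEquiv' (R := F) (n := Fin n)).toMonoidHom).comp
      { toFun := fun M => (M : Matrix (Fin n) (Fin n) F), map_one' := rfl, map_mul' := fun _ _ => rfl }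
  have hφ : Function.Injective φ := fun x y h => Subtype.ext (Matrix.toLinAlgEquiv'.injective h)
  haveI : CharP (Module.End F (Fin n → F)) p :=
    charP_of_injective_algebraMap (algebraMap F (Module.End F (Fin n → F))).injective p
  have hAk' : φ A ^ p ^ k = 1 := by rw [← map_pow, hAk, map_one]
  obtain ⟨s, hs, hs0, hs1⟩ := exists_top_pow (N := φ A - 1)
    (sub_ne_zero.2 fun h => hA1 (hφ (h.trans (map_one φ).symm))) (isNilpotent_sub_one p hAk')
  have hfr : finrank F (Fin n → F) = n := Module.finrank_fin_fun F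
  have hBr : φ B ^ r = 1 := by rw [← map_pow, ← hBo, pow_orderOf_eq_one, map_one]
  have h3 := sub_one_cube (F := F) (V := Fin n → F) hr (by omega) (by rw [hfr]; exact hrd)
    ((φ A - 1) ^ s) (φ B) hs0
    (by rw [← pow_add]; exact pow_eq_zero_of_le (by omega) hs1)
    (((hAB.symm.map φ).sub_right (Commute.one_right _)).pow_right s) hBr
  have hB1 : B = 1 := hφ ((eq_one_of_unipotent p hr hrp hBr h3).trans (map_one φ).symm)
  rw [hB1, orderOf_one] at hBo
  exact hr.ne_one hBo.symm

end Cfsg.Agent.CommPrimes
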