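import Cfsg.Agent.CommPrimes.Linear
import Cfsg.Agent.SemiUnitary.Classes
import Cfsg.Agent.Classical.UGroup
import Cfsg.Agent.S0278
import Cfsg.Agent.S0279

/-!
# Elements of prime order commuting with a non-trivial unipotent, unitary case
-/

set_option autoImplicit false
set_option linter.style.haveILetI false
set_option linter.unusedSectionVars false

noncomputable section

open scoped Matrix
open Module

namespace Cfsg.Agent.CommPrimes

variable {F : Type*} [Field F] [Fintype F] [StarRing F] {q : ℕ}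

theorem card_gu (hF : Fintype.card F = q ^ 2) (j : ℕ) :
    Nat.card ↥(Cfsg.GU j F q) = q ^ (j * (j - 1) / 2) *
      ∏ i ∈ Finset.range j, (if Even i then q ^ (i + 1) + 1 else q ^ (i + 1) - 1) := by
  rw [Nat.card_congr (Classical.U.guEquiv j F q).toEquiv, Classical.U.card_UG (Classical.U.sqField_of_fintype hF)]

theorem card_gu_dvd (hF : Fintype.card F = q ^ 2) {j k : ℕ} (h : j ≤ k) :
    Nat.card ↥(Cfsg.GU j F q) ∣ Nat.card ↥(Cfsg.GU k F q) := by
  rw [card_gu hF, card_gu hF]
  refine mul_dvd_mul (pow_dvd_pow q ?_) (Finset.prod_dvd_prod_of_subset _ _ _ (Finset.range_mono h))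
  exact Nat.div_le_div_right (Nat.mul_le_mul h (by omega))

theorem mem_gu (hq : ∀ x : F, star x = x ^ q) {j : ℕ} (g : GL (Fin j) F)
    (hg : star (g : Matrix (Fin j) (Fin j) F) * g = 1) : g ∈ Cfsg.GU j F q := by
  intro u v
  have hone : ∀ u v : Fin j → F, Cfsg.hermForm j F q u v = star v ⬝ᵥ u := fun u v => by
    simp only [Cfsg.hermForm, dotProduct, Pi.star_apply, hq]
    exact Finset.sum_congr rfl fun i _ => mul_comm _ _
  show Cfsg.hermForm j F q ((g : Matrix (Fin j) (Fin j) F) *ᵥ u) ((g : Matrix (Fin j) (Fin j) F) *ᵥ v) = _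
  rw [hone, hone, Matrix.star_mulVec, ← Matrix.dotProduct_mulVec, Matrix.mulVec_mulVec,
    ← Matrix.star_eq_conjTranspose, hg, Matrix.one_mulVec]

theorem unitary_eq_one (hq : ∀ x : F, star x = x ^ q) (hF : Fintype.card F = q ^ 2) {j d r : ℕ}
    (hr : r.Prime) (hjd : j ≤ d) (hrd : ¬ r ∣ Nat.card ↥(Cfsg.GU d F q))
    (U : Matrix (Fin j) (Fin j) F) (hU : star U * U = 1) (hUr : U ^ r = 1) : U = 1 := by
  let g : GL (Fin j) F := ⟨U, star U, mul_eq_one_comm.1 hU, hU⟩
  have hgr : (⟨g, mem_gu hq g hU⟩ : ↥(Cfsg.GU j F q)) ^ r = 1 := by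
    refine Subtype.ext (Units.ext ?_)
    simpa [g] using hUr
  have h1 := eq_one_of_pow hr (fun h => hrd (h.trans (card_gu_dvd hF hjd))) hgr
  simpa [g] using congrArg (fun x : ↥(Cfsg.GU j F q) => ((x : GL (Fin j) F) : Matrix (Fin j) (Fin j) F)) h1

theorem exists_factor {k : ℕ} (H : Matrix (Fin k) (Fin k) F) :
    ∃ (ρ : ℕ) (L : Matrix (Fin k) (Fin ρ) F), ρ = finrank F (LinearMap.range H.mulVecLin) ∧
      (∀ c, (H * L) *ᵥ c = 0 → c = 0) ∧
      ∀ (l : ℕ) (X : Matrix (Fin k) (Fin l) F), ∃ G : Matrix (Fin ρ) (Fin l) F, H * X = H * L * G := by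
  set b := finBasis F (LinearMap.range H.mulVecLin) with hb
  have hpre : ∀ i, ∃ v, H *ᵥ v = (b i : Fin k → F) := fun i => (b i).2
  choose v hv using hpre
  set L : Matrix (Fin k) (Fin (finrank F (LinearMap.range H.mulVecLin))) F := Matrix.of fun i j => v j i with hL
  have hHL : ∀ c, (H * L) *ᵥ c = ∑ i, c i • (b i : Fin k → F) := fun c => by
    funext x
    simp only [← hv, Finset.sum_apply, Pi.smul_apply, smul_eq_mul, Matrix.mulVec, dotProduct, Matrix.mul_apply,
      hL, Matrix.of_apply]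
    exact Finset.sum_congr rfl fun i _ => mul_comm _ _
  refine ⟨_, L, rfl, fun c hc => ?_, fun l X => ?_⟩
  · rw [hHL] at hc
    have : ∑ i, c i • b i = 0 := Subtype.ext (by rw [Submodule.coe_sum]; simpa using hc)
    funext i
    exact Fintype.linearIndependent_iff.1 b.linearIndependent c this i
  · refine ⟨Matrix.of fun i j => b.repr ⟨H *ᵥ (fun x => X x j), ⟨_, rfl⟩⟩ i, ?_⟩
    refine Matrix.ext fun x j => ?_
    have h1 := congrArg Subtype.val (b.sum_repr ⟨H *ᵥ (fun x => X x j), ⟨_, rfl⟩⟩)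
    rw [Submodule.coe_sum] at h1
    simp only [Submodule.coe_smul] at h1
    rw [← hHL] at h1
    exact (congrFun h1 x).symm

/-- An isometry of order dividing `r` of a possibly degenerate form of small rank is trivial on the quotient. -/
theorem herm_fix (hq : ∀ x : F, star x = x ^ q) (hF : Fintype.card F = q ^ 2) (hns : ∃ a : F, star a ≠ a)
    {k d r : ℕ} (hr : r.Prime) (hrd : ¬ r ∣ Nat.card ↥(Cfsg.GU d F q)) (H M : Matrix (Fin k) (Fin k) F)
    (hH : star H = H) (hM : star M * H * M = H) (hMr : M ^ r = 1)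
    (hrank : finrank F (LinearMap.range H.mulVecLin) ≤ d) : H * M = H := by
  obtain ⟨ρ, L, hρ, hinj, hfac⟩ := exists_factor H
  rw [← hρ] at hrank
  obtain ⟨G, hG⟩ := hfac _ (M * L)
  obtain ⟨S, hS⟩ := hfac _ (1 : Matrix (Fin k) (Fin k) F)
  rw [mul_one] at hS
  set M' := star (M ^ (r - 1))
  have hr1 : r - 1 + 1 = r := Nat.succ_pred_eq_of_pos hr.pos
  have hM' : H * M = M' * H := by
    have h1 : star M * M' = 1 := by rw [← star_mul, ← pow_succ, hr1, hMr, star_one]
    calc H * M = M' * star M * (H * M) := by rw [mul_eq_one_comm.1 h1, one_mul]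
      _ = M' * H := by rw [mul_assoc, ← mul_assoc (star M), hM]
  have hpow : ∀ t, H * L * G ^ t = H * M ^ t * L := by
    intro t
    induction t with
    | zero => simp
    | succ t ih =>
      rw [pow_succ, ← Matrix.mul_assoc, ih, (SemiconjBy.pow_right (show SemiconjBy H M M' from hM') t).eq,
        Matrix.mul_assoc, Matrix.mul_assoc, ← Matrix.mul_assoc H L G, ← hG, ← Matrix.mul_assoc,
        ← (SemiconjBy.pow_right (show SemiconjBy H M M' from hM') t).eq, Matrix.mul_assoc H (M ^ t),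
        ← Matrix.mul_assoc (M ^ t), ← pow_succ, ← Matrix.mul_assoc]
  have hGr : G ^ r = 1 := by
    refine Matrix.ext_of_mulVec_single fun i => sub_eq_zero.1 (hinj _ ?_)
    rw [Matrix.mulVec_sub, Matrix.mulVec_mulVec, Matrix.mulVec_mulVec, hpow, hMr, mul_one, Matrix.mul_one,
      sub_self]
  set J := Lᴴ * H * L with hJ
  have hJstar : star J = J := by
    rw [hJ, Matrix.star_eq_conjTranspose, Matrix.conjTranspose_mul, Matrix.conjTranspose_mul,
      Matrix.conjTranspose_conjTranspose, ← Matrix.star_eq_conjTranspose H, hH, Matrix.mul_assoc]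
  have hJunit : IsUnit J := by
    rw [← Matrix.mulVec_injective_iff_isUnit]
    intro v w h
    refine sub_eq_zero.1 (hinj _ ?_)
    have h0 : J *ᵥ (v - w) = 0 := by rw [Matrix.mulVec_sub, h, sub_self]
    have hHS : H = Sᴴ * Lᴴ * H := by
      conv_lhs => rw [← hH, hS]
      rw [Matrix.star_eq_conjTranspose, Matrix.conjTranspose_mul, Matrix.conjTranspose_mul,
        ← Matrix.star_eq_conjTranspose H, hH, Matrix.mul_assoc]
    rw [hHS, Matrix.mul_assoc Sᴴ, Matrix.mul_assoc Sᴴ, ← hJ, ← Matrix.mulVec_mulVec, h0, Matrix.mulVec_zero]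
  have hGJ : star G * J * G = J := by
    calc star G * J * G = Gᴴ * Lᴴ * (H * L * G) := by
          rw [hJ, Matrix.star_eq_conjTranspose]; simp only [Matrix.mul_assoc]
      _ = (H * L * G)ᴴ * (M * L) := by
          rw [Matrix.conjTranspose_mul (H * L) G, Matrix.conjTranspose_mul H L,
            ← Matrix.star_eq_conjTranspose H, hH, ← hG]
          simp only [Matrix.mul_assoc]
      _ = J := by
          rw [← hG, Matrix.conjTranspose_mul, Matrix.conjTranspose_mul, ← Matrix.star_eq_conjTranspose H, hH,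
            ← Matrix.star_eq_conjTranspose M, hJ]
          rw [show Lᴴ * star M * H * (M * L) = Lᴴ * (star M * H * M) * L by simp only [Matrix.mul_assoc], hM]
  obtain ⟨C, hC⟩ := SemiUnitary.exists_congr_one hns hJunit hJstar
  have hU : star ((C : Matrix (Fin ρ) (Fin ρ) F) * G * (↑C⁻¹ : Matrix (Fin ρ) (Fin ρ) F)) * ((C : Matrix (Fin ρ) (Fin ρ) F) * G * (↑C⁻¹ : Matrix (Fin ρ) (Fin ρ) F)) = 1 := by
    calc _ = star (↑C⁻¹ : Matrix (Fin ρ) (Fin ρ) F) * (star G * (star (C : Matrix (Fin ρ) (Fin ρ) F) * C) * G) * ↑C⁻¹ := by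
          simp only [star_mul, mul_assoc]
      _ = star (↑C⁻¹ : Matrix (Fin ρ) (Fin ρ) F) * (star (C : Matrix (Fin ρ) (Fin ρ) F) * C) * ↑C⁻¹ := by rw [hC, hGJ]
      _ = 1 := by rw [← mul_assoc, ← star_mul, Units.mul_inv, star_one, one_mul, Units.mul_inv]
  have hUr : ((C : Matrix (Fin ρ) (Fin ρ) F) * G * (↑C⁻¹ : Matrix (Fin ρ) (Fin ρ) F)) ^ r = 1 := by
    rw [Units.conj_pow, hGr, mul_one, Units.mul_inv]
  have hU1 := unitary_eq_one hq hF hr hrank hrd _ hU hUr
  have hG1 : G = 1 := by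
    have := congrArg (fun z => (↑C⁻¹ : Matrix (Fin ρ) (Fin ρ) F) * z * C) hU1
    simpa [mul_assoc] using this
  rw [hM']
  conv_lhs => rw [hS, ← Matrix.mul_assoc, ← Matrix.mul_assoc, ← hM', Matrix.mul_assoc H M L, hG, hG1,
    Matrix.mul_one, ← hS]

theorem exists_ker_matrix {m : ℕ} (T : Matrix (Fin m) (Fin m) F) :
    ∃ K : Matrix (Fin m) (Fin (finrank F (LinearMap.ker T.mulVecLin))) F, T * K = 0 ∧
      (∀ c, K *ᵥ c = 0 → c = 0) ∧
      ∀ (l : ℕ) (X : Matrix (Fin m) (Fin l) F), T * X = 0 →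
        ∃ S : Matrix (Fin (finrank F (LinearMap.ker T.mulVecLin))) (Fin l) F, X = K * S := by
  set b := finBasis F (LinearMap.ker T.mulVecLin) with hb
  set K : Matrix (Fin m) (Fin (finrank F (LinearMap.ker T.mulVecLin))) F :=
    Matrix.of fun i j => (b j : Fin m → F) i with hK
  have hKc : ∀ c, K *ᵥ c = ∑ i, c i • (b i : Fin m → F) := fun c => by
    funext x
    simp only [Finset.sum_apply, Pi.smul_apply, smul_eq_mul, Matrix.mulVec, dotProduct, hK, Matrix.of_apply]
    exact Finset.sum_congr rfl fun i _ => mul_comm _ _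
  refine ⟨K, ?_, fun c hc => ?_, fun l X hX => ?_⟩
  · refine Matrix.ext fun i j => ?_
    exact congrFun (LinearMap.mem_ker.1 (b j).2) i
  · rw [hKc] at hc
    have : ∑ i, c i • b i = 0 := Subtype.ext (by rw [Submodule.coe_sum]; simpa using hc)
    funext i
    exact Fintype.linearIndependent_iff.1 b.linearIndependent c this i
  · have hmem : ∀ j, (fun x => X x j) ∈ LinearMap.ker T.mulVecLin := fun j =>
      LinearMap.mem_ker.2 (funext fun i => congrFun (congrFun hX i) j)
    refine ⟨Matrix.of fun i j => b.repr ⟨_, hmem j⟩ i, Matrix.ext fun x j => ?_⟩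
    have h1 := congrArg Subtype.val (b.sum_repr ⟨_, hmem j⟩)
    rw [Submodule.coe_sum] at h1
    simp only [Submodule.coe_smul] at h1
    rw [← hKc] at h1
    exact (congrFun h1 x).symm

/-- Unitary version of `sub_one_cube`. -/
theorem unitary_sub_one_cube (hq : ∀ x : F, star x = x ^ q) (hF : Fintype.card F = q ^ 2) {m r : ℕ}
    (hm : 4 ≤ m) (hr : r.Prime) (hrd : ¬ r ∣ Nat.card ↥(Cfsg.GU (m - 2) F q))
    (T B : Matrix (Fin m) (Fin m) F) (hT : T ≠ 0) (hTT : T * T = 0)
    (e : ℕ) (hTs : star T = (-1 : F) ^ e • T)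
    (hBT : Commute B T) (hB : B ^ r = 1) (hBu : star B * B = 1) : (B - 1) ^ 3 = 0 := by
  classical
  have hns : ∃ a : F, star a ≠ a := by
    obtain ⟨a, ha⟩ := SemiUnitary.exists_pow_ne hF
    exact ⟨a, by rw [hq]; exact ha⟩
  set k := finrank F (LinearMap.ker T.mulVecLin) with hk
  obtain ⟨K, hTK, hKinj, hKfac⟩ := exists_ker_matrix T
  obtain ⟨S, hS⟩ := hKfac _ T hTT
  obtain ⟨M, hM⟩ := hKfac _ (B * K) (by rw [← Matrix.mul_assoc, ← hBT.eq, Matrix.mul_assoc, hTK, Matrix.mul_zero])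
  have hrk := LinearMap.finrank_range_add_finrank_ker T.mulVecLin
  rw [Module.finrank_fin_fun] at hrk
  have hpos : 0 < finrank F (LinearMap.range T.mulVecLin) := by
    rw [Nat.pos_iff_ne_zero, Ne, Submodule.finrank_eq_zero, LinearMap.range_eq_bot]
    intro h0
    exact hT (Matrix.ext_of_mulVec_single fun i => by
      rw [Matrix.zero_mulVec]; exact LinearMap.congr_fun h0 _)
  have hle : LinearMap.range T.mulVecLin ≤ LinearMap.ker T.mulVecLin := by
    rintro x ⟨y, rfl⟩
    simp [LinearMap.mem_ker, Matrix.mulVec_mulVec, hTT]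
  have hhalf := Submodule.finrank_mono hle
  -- the form given by `T`
  obtain ⟨c, hc0, hc⟩ : ∃ c : F, c ≠ 0 ∧ star c * (-1) ^ e = c := by
    rcases Nat.even_or_odd e with he | he
    · exact ⟨1, one_ne_zero, by rw [he.neg_one_pow, star_one, mul_one]⟩
    · obtain ⟨a, ha⟩ := hns
      exact ⟨a - star a, sub_ne_zero.2 (Ne.symm ha), by rw [he.neg_one_pow, star_sub, star_star]; ring⟩
  have hH : star (c • T) = c • T := by rw [star_smul, hTs, smul_smul, hc]
  have hH2 : star B * (c • T) * B = c • T := by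
    rw [Matrix.mul_smul, Matrix.smul_mul, mul_assoc, ← hBT.eq, ← mul_assoc, hBu, one_mul]
  have hH3 : finrank F (LinearMap.range (c • T).mulVecLin) ≤ m - 2 := by
    have : LinearMap.range (c • T).mulVecLin ≤ LinearMap.range T.mulVecLin := by
      rintro x ⟨y, rfl⟩
      exact ⟨c • y, by simp⟩
    have := Submodule.finrank_mono this
    omega
  have h1 := herm_fix hq hF hns hr hrd (c • T) B hH hH2 hB hH3
  have h1' : T * (B - 1) = 0 := by
    refine (smul_eq_zero.1 ?_).resolve_left hc0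
    rw [← Matrix.smul_mul, mul_sub, h1, mul_one, sub_self]
  obtain ⟨R, hR⟩ := hKfac _ (B - 1) h1'
  -- the form on the kernel
  have hMr : M ^ r = 1 := by
    have : ∀ t, B ^ t * K = K * M ^ t := by
      intro t
      induction t with
      | zero => simp
      | succ t ih => rw [pow_succ, Matrix.mul_assoc, hM, ← Matrix.mul_assoc, ih, Matrix.mul_assoc, ← pow_succ]
    refine Matrix.ext_of_mulVec_single fun i => sub_eq_zero.1 (hKinj _ ?_)
    rw [Matrix.mulVec_sub, Matrix.mulVec_mulVec, Matrix.mulVec_mulVec, ← this, hB, Matrix.one_mul,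
      Matrix.mul_one, sub_self]
  have hK2 : star (Kᴴ * K) = Kᴴ * K := by
    rw [Matrix.star_eq_conjTranspose, Matrix.conjTranspose_mul, Matrix.conjTranspose_conjTranspose]
  have hK3 : star M * (Kᴴ * K) * M = Kᴴ * K := by
    calc star M * (Kᴴ * K) * M = (K * M)ᴴ * (K * M) := by
          rw [Matrix.conjTranspose_mul, Matrix.star_eq_conjTranspose]; simp only [Matrix.mul_assoc]
      _ = Kᴴ * (star B * B) * K := by
          rw [← hM, Matrix.conjTranspose_mul, Matrix.star_eq_conjTranspose]; simp only [Matrix.mul_assoc]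
      _ = _ := by rw [hBu, Matrix.mul_one]
  have hKT : Kᴴ * T = 0 := by
    have h2 : (T * K)ᴴ = 0 := by rw [hTK, Matrix.conjTranspose_zero]
    rw [Matrix.conjTranspose_mul, ← Matrix.star_eq_conjTranspose T, hTs, Matrix.mul_smul] at h2
    exact (smul_eq_zero.1 h2).resolve_left (pow_ne_zero _ (neg_ne_zero.2 one_ne_zero))
  have hK4 : finrank F (LinearMap.range (Kᴴ * K).mulVecLin) ≤ m - 2 := by
    have h2 := LinearMap.finrank_range_add_finrank_ker (Kᴴ * K).mulVecLin
    rw [Module.finrank_fin_fun] at h2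
    have h3 : LinearMap.range S.mulVecLin ≤ LinearMap.ker (Kᴴ * K).mulVecLin := by
      rintro x ⟨y, rfl⟩
      simp [LinearMap.mem_ker, Matrix.mulVec_mulVec, ← hS, hKT]
    have h4 : finrank F (LinearMap.range T.mulVecLin) ≤ finrank F (LinearMap.range S.mulVecLin) := by
      have : LinearMap.range T.mulVecLin = (LinearMap.range S.mulVecLin).map K.mulVecLin := by
        rw [← LinearMap.range_comp, ← Matrix.mulVecLin_mul, ← hS]
      rw [this]
      exact Submodule.finrank_map_le _ _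
    have := Submodule.finrank_mono h3
    omega
  have h2 := herm_fix hq hF hns hr hrd (Kᴴ * K) M hK2 hK3 hMr hK4
  have h2' : Kᴴ * ((B - 1) * K) = 0 := by
    rw [Matrix.sub_mul, Matrix.one_mul, Matrix.mul_sub, hM, ← Matrix.mul_assoc, h2, sub_self]
  have hneg : B - 1 = -(B * (B - 1)ᴴ) := by
    rw [← Matrix.star_eq_conjTranspose, star_sub, star_one, mul_sub, mul_eq_one_comm.1 hBu, mul_one, neg_sub]
  have h5 : (B - 1) * ((B - 1) * K) = 0 := by
    conv_lhs => arg 1; rw [hneg, hR, Matrix.conjTranspose_mul]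
    rw [Matrix.neg_mul, Matrix.mul_assoc, Matrix.mul_assoc, h2', Matrix.mul_zero, Matrix.mul_zero, neg_zero]
  rw [pow_succ, pow_two]
  conv_lhs => arg 2; rw [hR]
  rw [Matrix.mul_assoc (B - 1) (B - 1), ← Matrix.mul_assoc (B - 1) K, ← Matrix.mul_assoc, h5, Matrix.zero_mul]

theorem dvd_card_su_of_dvd_card_gu (hF : Fintype.card F = q ^ 2) {k r : ℕ} (hk : 2 ≤ k) (hr : r.Prime)
    (h : r ∣ Nat.card ↥(Cfsg.GU k F q)) : r ∣ Nat.card ↥(Cfsg.SU k F q) := by
  have hsu := S0278.result hF k (by omega)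
  rw [card_gu hF, ← hsu] at h
  rcases hr.dvd_mul.1 h with hcase | hcase
  swap
  · exact hcase
  obtain ⟨d, rfl⟩ := Nat.exists_eq_add_of_le' hk
  rw [Finset.prod_range_succ' _ (d + 1), Finset.prod_range_succ' _ d] at hsu
  simp only [zero_add, pow_one, show Even 0 from ⟨0, rfl⟩, if_true, show ¬ Even 1 from by decide, if_false] at hsu
  rw [← mul_assoc, ← mul_assoc, mul_comm (q + 1)] at hsu
  rw [Nat.eq_of_mul_eq_mul_right (by omega) hsu]
  refine Dvd.dvd.mul_left ?_ _
  refine hcase.trans ?_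
  rw [show (1 + 1) = 2 from rfl, show q ^ 2 - 1 = (q + 1) * (q - 1) by rw [← Nat.sq_sub_sq, one_pow]]
  exact dvd_mul_right _ _

theorem psu_commuting (p : ℕ) [hp : Fact p.Prime] [CharP F p] (hq : ∀ x : F, star x = x ^ q)
    (hF : Fintype.card F = q ^ 2) (m : ℕ) (hm : 4 ≤ m)
    (a b : Cfsg.PSU m F q) (ha : orderOf a = p) (hab : Commute a b)
    {r : ℕ} (hr : r.Prime) (hrb : r ∣ orderOf b) : r ∣ Nat.card ↥(Cfsg.SU (m - 2) F q) := by
  classical
  by_cases hrd : r ∣ Nat.card ↥(Cfsg.GU (m - 2) F q)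
  · exact dvd_card_su_of_dvd_card_gu hF (by omega) hr hrd
  exfalso
  have hpq : p ∣ q := by
    obtain ⟨e, -, he⟩ := FiniteField.card F p
    refine hp.out.dvd_of_dvd_pow (n := 2) ?_
    rw [← hF, he]
    exact dvd_pow_self _ e.ne_zero
  have hrp : r ≠ p := by
    rintro rfl
    apply hrd
    rw [card_gu hF]
    refine Dvd.dvd.mul_right (hpq.trans (dvd_pow_self q ?_)) _
    refine (Nat.div_pos ?_ two_pos).ne'
    exact Nat.mul_le_mul (show 2 ≤ m - 2 by omega) (show 1 ≤ m - 2 - 1 by omega)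
  obtain ⟨A, B, k, hA1, hAk, hAB, hBo⟩ := exists_lift (Subgroup.center _) le_rfl p (fun z hz k hk => by
    have h1 : (⟨z, hz⟩ : Subgroup.center ↥(Cfsg.SU m F q)) ^ p ^ k = 1 := Subtype.ext hk
    have h2 := orderOf_dvd_natCard (⟨z, hz⟩ : Subgroup.center ↥(Cfsg.SU m F q))
    rw [S0279.result hF m (by omega)] at h2
    obtain ⟨i, -, hi⟩ := (Nat.dvd_prime_pow hp.out).1 (orderOf_dvd_of_pow_eq_one h1)
    have hi0 : i = 0 := by
      by_contra h0
      have h3 : p ∣ q + 1 := ((dvd_pow_self p h0).trans (hi ▸ h2)).trans (Nat.gcd_dvd_right m (q + 1))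
      exact hp.out.ne_one (Nat.dvd_one.1 ((Nat.dvd_add_right hpq).1 h3))
    rw [hi0, pow_zero, orderOf_eq_one_iff] at hi
    exact congrArg Subtype.val hi) a b ha hab r hr hrb
  let φ : ↥(Cfsg.SU m F q) →* Matrix (Fin m) (Fin m) F :=
    { toFun := fun x => ((x : Matrix.SpecialLinearGroup (Fin m) F) : Matrix (Fin m) (Fin m) F)
      map_one' := rfl
      map_mul' := fun _ _ => rfl }
  have hφ : Function.Injective φ := fun x y h => Subtype.ext (Subtype.ext h)
  have hu : ∀ x, star (φ x) * φ x = 1 := fun x => (SemiUnitary.star_mul_self_iff hq x.1).1 x.2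
  haveI : Nonempty (Fin m) := ⟨⟨0, by omega⟩⟩
  have hAk' : φ A ^ p ^ k = 1 := by rw [← map_pow, hAk, map_one]
  obtain ⟨s, hs, hs0, hs1⟩ := exists_top_pow (N := φ A - 1)
    (sub_ne_zero.2 fun h => hA1 (hφ (h.trans (map_one φ).symm))) (isNilpotent_sub_one p hAk')
  set N := φ A - 1 with hN
  have hTs : star (N ^ s) = (-1 : F) ^ s • N ^ s := by
    have h1 : star N = -1 * (star (φ A) * N) := by
      rw [hN, star_sub, star_one, mul_sub, hu, mul_one, neg_one_mul, neg_sub]
    have hc : Commute (star (φ A)) N := by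
      rw [hN]
      exact (show Commute (star (φ A)) (φ A) from (hu A).trans (mul_eq_one_comm.1 (hu A)).symm).sub_right
        (Commute.one_right _)
    have hfix : φ A * N ^ s = N ^ s := by
      rw [show φ A = N + 1 by rw [hN, sub_add_cancel], add_mul, ← pow_succ', hs1, zero_add, one_mul]
    have hfix' : ∀ t, star (φ A) ^ t * N ^ s = N ^ s := fun t => by
      induction t with
      | zero => simp
      | succ t ih =>
        rw [pow_succ, mul_assoc]
        conv_lhs => rw [← hfix, ← mul_assoc (star (φ A)), hu, one_mul, ih]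
    rw [star_pow, h1, (Commute.neg_one_left _).mul_pow, hc.mul_pow, hfix']
    rw [show ((-1 : Matrix (Fin m) (Fin m) F)) ^ s = (-1 : F) ^ s • 1 by
      rw [← Algebra.algebraMap_eq_smul_one, map_pow, map_neg, map_one], Matrix.smul_mul, one_mul]
  have hBr : φ B ^ r = 1 := by rw [← map_pow, ← hBo, pow_orderOf_eq_one, map_one]
  have h3 := unitary_sub_one_cube hq hF hm hr hrd (N ^ s) (φ B) hs0
    (by rw [← pow_add]; exact pow_eq_zero_of_le (by omega) hs1) s hTs
    (((hAB.symm.map φ).sub_right (Commute.one_right _)).pow_right s) hBr (hu B)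
  have hB1 : B = 1 := hφ ((eq_one_of_unipotent p hr hrp hBr h3).trans (map_one φ).symm)
  rw [hB1, orderOf_one] at hBo
  exact hr.ne_one hBo.symm

end Cfsg.Agent.CommPrimes
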